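import Cfsg.Agent.H209.PiSpor.ToolsV
import Cfsg.Agent.KFacts.He.InvolAut
import Cfsg.Agent.KFacts.He.TwoA
import Cfsg.Agent.KFacts.He.TwoAAut
import Cfsg.Agent.KFacts.He.Outer
import Cfsg.Agent.CpAutHe.Seven

/-!
# S4324, sporadic rows: the Held group, `s = 7`, and all involutory automorphisms for `s = 3, 5, 7` (helper640)

* `kill` : an automorphism with `PC s` (`s ∣ 20160`) fixing the involution `a` is trivial: it centralises
  `L = C(a)' = 2².L₃(4)`, so is induced by an element of `V = Z(L)`; a conjugate of `a` outside `V` in `L` finishes;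
* `two_kill` : no automorphism of order two satisfies `PC s`;
* `ncs_He_7`.
-/

set_option autoImplicit false
set_option maxRecDepth 100000

namespace Cfsg.Agent.H640.PiSpor.He

open Subgroup Cfsg Cfsg.Agent.H216.Pi Cfsg.Agent.H209.PiSpor
open Cfsg.Spor.He (Gen)
open Cfsg.Agent.SporadicB.HePerm
open Cfsg.Agent.FixBN.HeStab Cfsg.Agent.KFacts.He.Lv
open Cfsg.Agent.KFacts.He.TwoACent
open Cfsg.Agent.CpAutHe.Seven (card_L center_bot x1 order1 x1_comm T1 t1_conj simple_he)
open Cfsg.Agent.CpAutHe.Bound (X1 card1)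
open scoped commutatorElement

theorem card_he : Nat.card Cfsg.Spor.He = 4030387200 := Cfsg.Agent.FixBN.HeStab.card_he

theorem finite_he : Finite Cfsg.Spor.He := Cfsg.Agent.FixBN.HeStab.finite_he

theorem L_ne_top : L ≠ ⊤ := by
  intro h
  have h1 := card_L
  rw [h, card_top, card_he] at h1
  norm_num at h1

theorem comm_mem_L {c d : Cfsg.Spor.He} (hc : c * gn .a = gn .a * c) (hd : d * gn .a = gn .a * d) : ⁅c, d⁆ ∈ L := by
  rw [commutatorElement_def]
  rcases two hc hd with h | h | h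
  · have e : c * d * c⁻¹ * d⁻¹ = c * (d * c⁻¹ * d⁻¹) := by group
    rw [e]
    exact L.mul_mem h (norm hd (L.inv_mem h))
  · exact L.mul_mem (norm hc h) (L.inv_mem h)
  · have e : c * d * c⁻¹ * d⁻¹ = c * d * (d * (c * d) * d⁻¹)⁻¹ := by group
    rw [e]
    exact L.mul_mem h (L.inv_mem (norm hd h))

theorem map_L {x : MulAut Cfsg.Spor.He} (hx : x (gn .a) = gn .a) : ∀ m ∈ L, x m ∈ L := by
  intro m hm
  set C := centralizer ({gn .a} : Set Cfsg.Spor.He) with hC
  have hmC : ∀ k, k ∈ C ↔ k * gn .a = gn .a * k := fun k => mem_centralizer_singleton_iff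
  have hder : ⁅C, C⁆ ≤ L := by
    rw [commutator_le]
    exact fun c hc d hd => comm_mem_L ((hmC c).1 hc) ((hmC d).1 hd)
  have hLC : L ≤ C := fun k hk => (hmC k).2 (L_comm_a hk)
  have h1 : m ∈ ⁅C, C⁆ := by
    rw [← perf] at hm
    exact commutator_mono hLC hLC hm
  have h2 : C.map x.toMonoidHom ≤ C := by
    rintro _ ⟨k, hk, rfl⟩
    rw [SetLike.mem_coe, hmC] at hk
    rw [hmC]
    have h3 := congrArg x hk
    rw [map_mul, map_mul, hx] at h3
    exact h3
  have h4 : x m ∈ (⁅C, C⁆).map x.toMonoidHom := ⟨m, h1, rfl⟩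
  rw [map_commutator] at h4
  exact hder (commutator_mono h2 h2 h4)

theorem card_quot : Nat.card (L ⧸ center L) = 20160 := by
  have h1 : Nat.card (L ⧸ center L) * Nat.card (center L) = 80640 := by
    rw [← Subgroup.card_eq_card_quotient_mul_card_subgroup, card_L]
  have h2 : Nat.card (center L) = 4 := by
    rw [Cfsg.Agent.KFacts.He.TwoAPlane.center_L, Nat.card_congr (subgroupOfEquivOfLe V_le_L).toEquiv, card_V]
  rw [h2] at h1
  omega

theorem kill_aux {s : ℕ} (hs : s.Prime) (hd : s ∣ 20160) {x : MulAut Cfsg.Spor.He} (hPC : PC s x)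
    (hx : x (gn .a) = gn .a) : (∀ l ∈ L, x l = l) ∧ ∃ z ∈ V, x = MulAut.conj z := by
  have := finite_he
  have h1 : ∀ l ∈ L, x l = l := fun l hl =>
    hPC.eq_of_quasisimple hs L_ne_top (map_L hx) Cfsg.Agent.KFacts.He.TwoA.isQuasisimple_L (by rw [card_quot]; exact hd) hl
  refine ⟨h1, ?_⟩
  obtain ⟨z, hz, h⟩ := Cfsg.Agent.KFacts.He.TwoAAut.aut_eq (α := x) h1
  exact ⟨z, hz, MulEquiv.ext h⟩

/-- the word of the conjugating element `g`: `g a g⁻¹ = a d` -/
def gw : List Gen := [.f, .d, .g, .b, .c, .d, .f, .e, .d, .c, .b]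

theorem g_a : wd gw * gn .a * (wd gw)⁻¹ = gn .a * gn .d := by
  have h := eq_of_chkB (v := gw ++ [.a]) (w := [.a, .d] ++ gw) (by decide +kernel)
  rw [wd_append, wd_append, wd_one, wd_cons, wd_one] at h
  rw [h, mul_inv_cancel_right]

/-- `V` and its conjugate meet trivially -/
theorem meet {z z' : Cfsg.Spor.He} (hz : z ∈ V) (hz' : z' ∈ V) (h : z * wd gw = wd gw * z') : z = 1 := by
  rcases V_eq hz with h1 | h1
  · exact h1
  exfalso
  have hz0 : z' ≠ 1 := by
    rintro rfl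
    rw [mul_one] at h
    have h2 : z = 1 := mul_eq_right.1 h
    rcases h1 with h1 | h1 | h1 <;> rw [h1] at h2
    · exact a_ne_one h2
    · exact v_ne_one h2
    · exact v_ne_a (by
        have h3 : v * gn .a * gn .a = gn .a := by rw [h2, one_mul]
        rwa [mul_assoc, gn_mul_self, mul_one] at h3)
  have e1 : ∀ u : List Gen, wd (u ++ gw) = wd u * wd gw := fun u => wd_append _ _
  have e2 : ∀ u : List Gen, wd (gw ++ u) = wd gw * wd u := fun u => wd_append _ _
  have ev : wd vW = v := rfl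
  have ea : wd [Gen.a] = gn .a := wd_one _
  have eva : wd (vW ++ [Gen.a]) = v * gn .a := by rw [wd_append, ev, ea]
  rcases h1 with h1 | h1 | h1 <;> rcases (V_eq hz').resolve_left hz0 with h2 | h2 | h2 <;> rw [h1, h2] at h
  · rw [← ea, ← e1, ← e2] at h
    exact ne_of_act 3 (by decide +kernel) h
  · rw [← ea, ← ev, ← e1, ← e2] at h
    exact ne_of_act 1 (by decide +kernel) h
  · rw [← eva, ← ea, ← e1, ← e2] at h
    exact ne_of_act 1 (by decide +kernel) h
  · rw [← ea, ← ev, ← e1, ← e2] at h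
    exact ne_of_act 1 (by decide +kernel) h
  · rw [← ev, ← e1, ← e2] at h
    exact ne_of_act 1 (by decide +kernel) h
  · rw [← eva, ← ev, ← e1, ← e2] at h
    exact ne_of_act 1 (by decide +kernel) h
  · rw [← eva, ← ea, ← e1, ← e2] at h
    exact ne_of_act 1 (by decide +kernel) h
  · rw [← eva, ← ev, ← e1, ← e2] at h
    exact ne_of_act 1 (by decide +kernel) h
  · rw [← eva, ← e1, ← e2] at h
    exact ne_of_act 1 (by decide +kernel) h

/-- **an automorphism with `PC s` fixing the involution `a` is trivial** -/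
theorem kill {s : ℕ} (hs : s.Prime) (hd : s ∣ 20160) {x : MulAut Cfsg.Spor.He} (hPC : PC s x)
    (hx : x (gn .a) = gn .a) : x = 1 := by
  have := finite_he
  obtain ⟨hL, z, hz, hxz⟩ := kill_aux hs hd hPC hx
  have h1 : x (wd gw * gn .a * (wd gw)⁻¹) = wd gw * gn .a * (wd gw)⁻¹ := by
    rw [g_a]
    exact hL _ (L.mul_mem a_mem_L (gn_mem_L (by simp)))
  obtain ⟨-, z', hz', h2⟩ := kill_aux hs hd (hPC.conj (wd gw)⁻¹) (cj_fix_of h1)
  rw [hxz, cj_conj, inv_inv] at h2
  have h3 : (wd gw)⁻¹ * z * wd gw = z' := conj_inj center_bot h2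
  have h4 : z * wd gw = wd gw * z' := by rw [← h3]; group
  rw [hxz, meet hz hz' h4, map_one]

/-- **no automorphism of order two satisfies `PC s`** -/
theorem two_kill {s : ℕ} (hs : s.Prime) (hd : s ∣ 20160) {x : MulAut Cfsg.Spor.He} (hx : orderOf x = 2)
    (hPC : PC s x) : False := by
  have := finite_he
  have h1 : x * x = 1 := by rw [← pow_two, ← hx, pow_orderOf_eq_one]
  obtain ⟨g, hg⟩ := Cfsg.Agent.KFacts.He.InvolAut.fix_a x h1
  have h2 := kill hs hd (hPC.conj g⁻¹) (cj_fix_of hg)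
  have h3 := orderOf_cj x g⁻¹
  rw [h2, orderOf_one, hx] at h3
  omega

/-- elements of odd order: one which centralises an involution conjugate to `a` is killed -/
theorem ni_of_fix {s p : ℕ} (hs : s.Prime) (hd : s ∣ 20160) (hp : p.Prime)
    (h : ∀ g : Cfsg.Spor.He, orderOf g = p → ∃ b : Cfsg.Spor.He, (b * g * b⁻¹) * gn .a = gn .a * (b * g * b⁻¹)) :
    NI s p Cfsg.Spor.He := by
  have := finite_he
  intro g hg hPC _
  obtain ⟨b, hb⟩ := h g hg
  have h2 := kill hs hd (pc_conj_elt b hPC) (by rw [MulAut.conj_apply, hb, mul_inv_cancel_right])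
  have h3 : b * g * b⁻¹ = 1 := conj_inj center_bot (by rw [h2, map_one])
  have h4 := orderOf_conj' b g
  rw [h3, orderOf_one, hg] at h4
  exact hp.one_lt.ne h4

theorem ni_two {s : ℕ} (hs : s.Prime) (hd : s ∣ 20160) : NI s 2 Cfsg.Spor.He := by
  intro g hg hPC _
  refine two_kill hs hd ?_ hPC
  rw [← hg]
  exact orderOf_injective (MulAut.conj : Cfsg.Spor.He →* MulAut Cfsg.Spor.He) (conj_inj center_bot) g

theorem no_he {s : ℕ} (hs : s.Prime) (hd : s ∣ 20160) : NO s Cfsg.Spor.He :=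
  fun _ hx _ hPC _ => two_kill hs hd hx hPC

theorem hout (x : MulAut Cfsg.Spor.He) (hp : (orderOf x).Prime)
    (hx : x ∉ (MulAut.conj : Cfsg.Spor.He →* MulAut Cfsg.Spor.He).range) : orderOf x = 2 := by
  by_contra h2
  apply hx
  refine Cfsg.Agent.KFacts.He.Outer.inner_of_odd Cfsg.Agent.KFacts.He.Outer.isoHe_refl x
    (hp.odd_of_ne_two h2) ?_
  rw [pow_orderOf_eq_one]
  exact one_mem _

/-! ### The element `x1` of order seven -/

theorem sq_dvd_cent_aux {Q : Type*} [Group Q] [Finite Q] {p : ℕ} [hp : Fact p.Prime] (hQ : IsPGroup p Q) {x : Q}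
    (hx : orderOf x = p) (h2 : p ^ 2 ∣ Nat.card Q) : p ^ 2 ∣ Nat.card (centralizer ({x} : Set Q)) := by
  set C : Subgroup Q := centralizer ({x} : Set Q) with hC
  have hCp : IsPGroup p C := hQ.to_subgroup C
  obtain ⟨n, hn⟩ := IsPGroup.iff_card.1 hCp
  rw [hn]
  refine pow_dvd_pow p ?_
  by_contra hlt
  -- `|C| ≤ p`
  have hxC : x ∈ C := by rw [hC, mem_centralizer_singleton_iff]
  have hzC : zpowers x ≤ C := (zpowers_le).2 hxC
  have h5 : Nat.card (zpowers x) = p := by rw [Nat.card_zpowers, hx]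
  have h5' : Nat.card C ≤ p := by
    rw [hn]
    calc p ^ n ≤ p ^ 1 := Nat.pow_le_pow_right hp.out.pos (by omega)
      _ = p := pow_one p
  have h6 : zpowers x = C := Subgroup.eq_of_le_of_card_ge hzC (by rw [h5]; exact h5')
  have hnt : Nontrivial Q := by
    refine ⟨x, 1, fun h => ?_⟩
    rw [h, orderOf_one] at hx
    exact hp.out.one_lt.ne hx
  have h7 : Nontrivial (center Q) := hQ.center_nontrivial
  have h8 : center Q ≤ zpowers x := by
    rw [h6, hC]
    intro c hc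
    rw [mem_centralizer_singleton_iff]
    exact (mem_center_iff.1 hc _).symm
  have h9 : center Q = zpowers x := by
    refine Subgroup.eq_of_le_of_card_ge h8 ?_
    rw [h5]
    obtain ⟨m, hm⟩ := IsPGroup.iff_card.1 (hQ.to_subgroup (center Q))
    have h10 : 1 < Nat.card (center Q) := Finite.one_lt_card
    rw [hm] at h10 ⊢
    calc p = p ^ 1 := (pow_one p).symm
      _ ≤ p ^ m := Nat.pow_le_pow_right hp.out.pos (by
        by_contra h0
        have h00 : m = 0 := by omega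
        rw [h00, pow_zero] at h10
        exact lt_irrefl _ h10)
  have h11 : C = ⊤ := by
    rw [eq_top_iff]
    intro c _
    rw [hC, mem_centralizer_singleton_iff]
    have h12 : x ∈ center Q := by rw [h9]; exact mem_zpowers _
    exact mem_center_iff.1 h12 c
  rw [h11, card_top] at hn
  rw [hn] at h2
  have := (Nat.pow_dvd_pow_iff_le_right hp.out.one_lt).1 h2
  omega

theorem sq_dvd_cent {K : Type*} [Group K] [Finite K] {p : ℕ} [hp : Fact p.Prime] {x : K} (hx : orderOf x = p)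
    (h2 : p ^ 2 ∣ Nat.card K) : p ^ 2 ∣ Nat.card (centralizer ({x} : Set K)) := by
  have hpg : IsPGroup p (zpowers x) := IsPGroup.of_card (n := 1) (by rw [Nat.card_zpowers, hx, pow_one])
  obtain ⟨P, hP⟩ := hpg.exists_le_sylow
  obtain ⟨Q, hQ⟩ : ∃ Q : Subgroup K, Q = P := ⟨_, rfl⟩
  have hxQ : x ∈ Q := by rw [hQ]; exact hP (mem_zpowers x)
  have hcQ : p ^ 2 ∣ Nat.card Q := by rw [hQ]; exact P.pow_dvd_card_of_pow_dvd_card h2
  have hQp : IsPGroup p Q := by rw [hQ]; exact P.2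
  have h3 := sq_dvd_cent_aux hQp (x := ⟨x, hxQ⟩) (by rw [Subgroup.orderOf_mk, hx]) hcQ
  refine h3.trans ?_
  have hmap : (centralizer ({(⟨x, hxQ⟩ : Q)} : Set Q)).map Q.subtype ≤ centralizer ({x} : Set K) := by
    rintro _ ⟨c, hc, rfl⟩
    rw [SetLike.mem_coe, mem_centralizer_singleton_iff] at hc
    rw [mem_centralizer_singleton_iff]
    exact congrArg Subtype.val hc
  have h4 := Subgroup.card_dvd_of_le hmap
  rwa [Subgroup.card_map_of_injective Q.subtype_injective] at h4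

theorem orderOf_t1 : orderOf (wd T1) = 2 := by
  rw [← t1_conj, orderOf_conj']
  refine orderOf_eq_prime (by rw [pow_two, gn_mul_self]) ?_
  rw [← wd_one, ← wd_nil]
  exact ne_of_act 8 (by decide +kernel)

/-- `|C(x1)| = 98` or `196` -/
theorem card_cent_x1 : Nat.card (centralizer ({x1} : Set Cfsg.Spor.He)) = 98 ∨
    Nat.card (centralizer ({x1} : Set Cfsg.Spor.He)) = 196 := by
  have := finite_he
  have h7 : Fact (Nat.Prime 7) := ⟨by norm_num⟩
  have h1 := sq_dvd_cent order1 (by rw [card_he]; norm_num)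
  have h2 : 2 ∣ Nat.card (centralizer ({x1} : Set Cfsg.Spor.He)) := by
    have h3 : wd T1 ∈ centralizer ({x1} : Set Cfsg.Spor.He) := mem_centralizer_singleton_iff.2 x1_comm.symm
    have h4 := orderOf_dvd_natCard (⟨wd T1, h3⟩ : centralizer ({x1} : Set Cfsg.Spor.He))
    rwa [Subgroup.orderOf_mk, orderOf_t1] at h4
  have h3 : 2 * 7 ^ 2 ∣ Nat.card (centralizer ({x1} : Set Cfsg.Spor.He)) :=
    Nat.Coprime.mul_dvd_of_dvd_of_dvd (by norm_num) h2 h1
  have h4 : Nat.card (centralizer ({x1} : Set Cfsg.Spor.He)) ≤ 196 := card1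
  obtain ⟨k, hk⟩ := h3
  have h5 : 0 < Nat.card (centralizer ({x1} : Set Cfsg.Spor.He)) := Nat.card_pos
  rw [hk] at h4 h5 ⊢
  omega

theorem ni_V {p : ℕ} (hp : p.Prime) (h2 : p ≠ 2) (h7 : p ≠ 7)
    (hb : ∀ b : ℕ, 1 ≤ b → p ^ b ∣ 4030387200 → ¬ 7 ∣ p ^ b - 1) : NI 7 p Cfsg.Spor.He := by
  have := finite_he
  refine NI.of_V (by norm_num) hp center_bot order1 ?_ (by rw [card_he]; exact hb)
  intro h ho hc
  have h3 : h ∈ centralizer ({x1} : Set Cfsg.Spor.He) := mem_centralizer_singleton_iff.2 hc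
  have h4 := orderOf_dvd_natCard (⟨h, h3⟩ : centralizer ({x1} : Set Cfsg.Spor.He))
  rw [Subgroup.orderOf_mk, ho] at h4
  have h5 : p ∣ 2 ^ 2 * 7 ^ 2 := by
    rcases card_cent_x1 with h6 | h6 <;> rw [h6] at h4
    · exact h4.trans (by norm_num)
    · exact h4.trans (by norm_num)
  rcases (hp.dvd_mul).1 h5 with h6 | h6
  · exact h2 ((Nat.prime_dvd_prime_iff_eq hp (by norm_num)).1 (hp.dvd_of_dvd_pow h6))
  · exact h7 ((Nat.prime_dvd_prime_iff_eq hp (by norm_num)).1 (hp.dvd_of_dvd_pow h6))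

theorem prime_cases {p : ℕ} (hp : p.Prime) (hd : p ∣ 4030387200) : p = 2 ∨ p = 3 ∨ p = 5 ∨ p = 7 ∨ p = 17 := by
  have h1 : (4030387200 : ℕ) = 2 ^ 10 * 3 ^ 3 * 5 ^ 2 * 7 ^ 3 * 17 := by norm_num
  rw [h1] at hd
  simp only [hp.dvd_mul] at hd
  rcases hd with (((h | h) | h) | h) | h
  · exact Or.inl ((Nat.prime_dvd_prime_iff_eq hp (by norm_num)).1 (hp.dvd_of_dvd_pow h))
  · exact Or.inr (Or.inl ((Nat.prime_dvd_prime_iff_eq hp (by norm_num)).1 (hp.dvd_of_dvd_pow h)))
  · exact Or.inr (Or.inr (Or.inl ((Nat.prime_dvd_prime_iff_eq hp (by norm_num)).1 (hp.dvd_of_dvd_pow h))))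
  · exact Or.inr (Or.inr (Or.inr (Or.inl ((Nat.prime_dvd_prime_iff_eq hp (by norm_num)).1 (hp.dvd_of_dvd_pow h)))))
  · exact Or.inr (Or.inr (Or.inr (Or.inr ((Nat.prime_dvd_prime_iff_eq hp (by norm_num)).1 h))))

/-- `7 ∤ p ^ b - 1` -/
theorem hb_of {p k : ℕ} (hk : ¬ p ^ (k + 1) ∣ 4030387200)
    (h : ∀ b, 1 ≤ b → b ≤ k → ¬ 7 ∣ p ^ b - 1) : ∀ b : ℕ, 1 ≤ b → p ^ b ∣ 4030387200 → ¬ 7 ∣ p ^ b - 1 := by
  intro b hb hd
  refine h b hb ?_
  by_contra hlt
  exact hk ((pow_dvd_pow p (by omega)).trans hd)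

theorem ni_seven {p : ℕ} (hp : p.Prime) (h7 : p ≠ 7) : NI 7 p Cfsg.Spor.He := by
  have := finite_he
  by_cases hd : p ∣ Nat.card Cfsg.Spor.He
  · rw [card_he] at hd
    rcases prime_cases hp hd with rfl | rfl | rfl | rfl | rfl
    · exact ni_two (by norm_num) (by norm_num)
    · exact ni_V hp (by norm_num) h7 (hb_of (k := 3) (by norm_num)
        (fun b h1 h2 => by interval_cases b <;> norm_num))
    · exact ni_V hp (by norm_num) h7 (hb_of (k := 2) (by norm_num)
        (fun b h1 h2 => by interval_cases b <;> norm_num))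
    · exact (h7 rfl).elim
    · exact ni_V hp (by norm_num) h7 (hb_of (k := 1) (by norm_num)
        (fun b h1 h2 => by interval_cases b; norm_num))
  · intro g hg _ _
    exact hd (hg ▸ orderOf_dvd_natCard g)

theorem ncs_he_seven : NCs 7 Cfsg.Spor.He := by
  have := finite_he
  exact ncs_of center_bot (fun p hp h7 => ni_seven hp h7) hout (no_he (by norm_num) (by norm_num))

universe u

/-- **the Held group, `s = 7`** -/
theorem ncs_He_7 {K : Type u} [Group K] [Finite K] (h : Spor.IsoHe K) : NCs 7 K := by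
  obtain ⟨e⟩ := h
  have := finite_he
  exact ncs_congr e.symm ncs_he_seven

end Cfsg.Agent.H640.PiSpor.He
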